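import Mathlib
import Cfsg.Agent.Lib.Helper9.DualPQ
import Cfsg.Agent.Lib.Helper4.Basic
import Cfsg.Agent.S0058

set_option autoImplicit false

/-! Generation by the centralizers of cocyclic subgroups (coprime abelian action). -/

namespace Cfsg.Agent.Lib.Helper9

open Cfsg.Agent.Lib.Helper1
open scoped commutatorElement

universe u
variable {X : Type u} [Group X]

theorem abelian_comm {A : Subgroup X} (hA : IsMulCommutative A) {a b : X} (ha : a ∈ A) (hb : b ∈ A) :
    a * b = b * a :=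
  (Cfsg.Agent.Lib.Helper4.isMulCommutative_iff A).mp hA a ha b hb

/-- generation by centralizers of elements outside the kernel `D` of the action -/
theorem gen_mod [Finite X] (A Y D : Subgroup X) (hAab : IsMulCommutative A) (hDA : D ≤ A)
    (hDY : D ≤ Subgroup.centralizer (Y : Set X)) (hAY : A ≤ Subgroup.normalizer (Y : Set X))
    (hcop : (Nat.card A).Coprime (Nat.card Y)) (hnc : ¬ ∃ a ∈ A, D ⊔ Subgroup.zpowers a = A) :
    Y ≤ ⨆ a ∈ {a : X | a ∈ A ∧ a ∉ D}, Y ⊓ Subgroup.centralizer ({a} : Set X) := by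
  obtain ⟨N, hN⟩ : ∃ N, N = Subgroup.normalizer (D : Set X) := ⟨_, rfl⟩
  have hDn : (D.subgroupOf N).Normal := by rw [hN]; infer_instance
  have hAN : A ≤ N := by
    rw [hN]
    apply le_normalizer_of_forall_conj_mem
    intro a ha d hd
    rw [abelian_comm hAab ha (hDA hd), mul_inv_cancel_right]
    exact hd
  have hYN : Y ≤ N := by
    rw [hN]
    apply le_normalizer_of_forall_conj_mem
    intro y hy d hd
    have := (Subgroup.mem_centralizer_iff.mp (hDY hd)) y hy
    rw [this, mul_inv_cancel_right]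
    exact hd
  have hYD : Y ⊓ D = ⊥ := by
    apply disjoint_iff.mp
    apply Subgroup.disjoint_of_coprime_natCard
    exact (Nat.Coprime.coprime_dvd_left (Subgroup.card_dvd_of_le hDA) hcop).symm
  obtain ⟨S', hS'⟩ : ∃ S', S' = ⨆ a ∈ {a : X | a ∈ A ∧ a ∉ D}, Y ⊓ Subgroup.centralizer ({a} : Set X) :=
    ⟨_, rfl⟩
  rw [← hS']
  have hS'Y : S' ≤ Y := by
    rw [hS']
    exact iSup₂_le fun _ _ => inf_le_left
  let π := QuotientGroup.mk' (D.subgroupOf N)
  have hπ : ∀ x y : N, π x = π y ↔ ((x : X)⁻¹ * (y : X)) ∈ D := by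
    intro x y
    show ((x : N) : N ⧸ D.subgroupOf N) = ((y : N) : N ⧸ D.subgroupOf N) ↔ _
    rw [QuotientGroup.eq, Subgroup.mem_subgroupOf]
    rfl
  have hcomA : IsMulCommutative ((A.subgroupOf N).map π) := by
    have := Subgroup.subgroupOf_isMulCommutative N A
    exact Subgroup.map_isMulCommutative _ _
  have hnc' : ¬ IsCyclic ((A.subgroupOf N).map π) := by
    intro hcyc
    apply hnc
    obtain ⟨⟨_, ⟨a, ha, rfl⟩⟩, hgen⟩ := hcyc.exists_generator
    refine ⟨a.1, ha, le_antisymm (sup_le hDA ((Subgroup.zpowers_le).mpr ha)) ?_⟩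
    intro b hb
    obtain ⟨k, hk⟩ := hgen ⟨π ⟨b, hAN hb⟩, ⟨⟨b, hAN hb⟩, hb, rfl⟩⟩
    have hk' : π (a ^ k) = π ⟨b, hAN hb⟩ := by
      have := congrArg Subtype.val hk
      rw [map_zpow]
      exact this
    rw [hπ] at hk'
    have e : b = (a : X) ^ k * (((a ^ k : N) : X)⁻¹ * b) := by
      rw [Subgroup.coe_zpow]; group
    rw [e]
    exact mul_mem ((le_sup_right : Subgroup.zpowers (a : X) ≤ _) (Subgroup.zpow_mem_zpowers _ k))
      ((le_sup_left : D ≤ _) hk')
  have hnorm : (A.subgroupOf N).map π ≤ Subgroup.normalizer (((Y.subgroupOf N).map π : Subgroup _) : Set _) := by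
    refine le_trans (Subgroup.map_mono ?_) (Subgroup.le_normalizer_map π)
    intro a ha
    rw [Subgroup.mem_normalizer_iff]
    intro h
    rw [Subgroup.mem_subgroupOf, Subgroup.mem_subgroupOf]
    exact Subgroup.mem_normalizer_iff.mp (hAY ha) h.1
  have hcop' : (Nat.card ((A.subgroupOf N).map π)).Coprime (Nat.card ((Y.subgroupOf N).map π)) := by
    have h1 : Nat.card ((A.subgroupOf N).map π) ∣ Nat.card A := by
      rw [← Nat.card_congr (Subgroup.subgroupOfEquivOfLe hAN).toEquiv]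
      exact Subgroup.card_map_dvd _ _
    have h2 : Nat.card ((Y.subgroupOf N).map π) ∣ Nat.card Y := by
      rw [← Nat.card_congr (Subgroup.subgroupOfEquivOfLe hYN).toEquiv]
      exact Subgroup.card_map_dvd _ _
    exact Nat.Coprime.of_dvd h1 h2 hcop
  have hgen := Cfsg.Agent.S0058.result ((A.subgroupOf N).map π) ((Y.subgroupOf N).map π) hnc' hnorm hcop'
  have hle : (Y.subgroupOf N).map π ≤ (S'.subgroupOf N).map π := by
    rw [← hgen]
    apply iSup₂_le
    rintro _ ⟨⟨a, ha, rfl⟩, ha1⟩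
    intro z hz
    obtain ⟨hz1, hz2⟩ := Subgroup.mem_inf.mp hz
    obtain ⟨y, hy, rfl⟩ := hz1
    rw [Subgroup.mem_centralizer_singleton_iff, ← map_mul, ← map_mul, hπ] at hz2
    have haA : (a : X) ∈ A := ha
    have hyY : (y : X) ∈ Y := hy
    have haD : (a : X) ∉ D := by
      intro h
      apply ha1
      have : π a = π 1 := by
        rw [hπ]
        exact mul_mem (inv_mem h) (one_mem _)
      rw [this, map_one]
    have h1 : ((y * a : N) : X)⁻¹ * ((a * y : N) : X) ∈ Y := by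
      have e : ((y * a : N) : X)⁻¹ * ((a * y : N) : X) = ((a : X)⁻¹ * (y : X)⁻¹ * (a : X)⁻¹⁻¹) * (y : X) := by
        rw [Subgroup.coe_mul, Subgroup.coe_mul]; group
      rw [e]
      exact mul_mem (conj_mem_of_mem_normalizer (hAY (inv_mem haA)) (inv_mem hyY)) hyY
    have h2 : ((y * a : N) : X)⁻¹ * ((a * y : N) : X) ∈ Y ⊓ D := Subgroup.mem_inf.mpr ⟨h1, hz2⟩
    rw [hYD, Subgroup.mem_bot, inv_mul_eq_one, Subgroup.coe_mul, Subgroup.coe_mul] at h2
    refine ⟨y, ?_, rfl⟩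
    rw [SetLike.mem_coe, Subgroup.mem_subgroupOf, hS']
    have h3 : (y : X) ∈ Y ⊓ Subgroup.centralizer ({(a : X)} : Set X) := by
      refine Subgroup.mem_inf.mpr ⟨hyY, ?_⟩
      rw [Subgroup.mem_centralizer_singleton_iff]
      exact h2
    exact (le_iSup₂ (f := fun (a : X) (_ : a ∈ {a : X | a ∈ A ∧ a ∉ D}) =>
      Y ⊓ Subgroup.centralizer ({a} : Set X)) (a : X) ⟨haA, haD⟩) h3
  intro y hy
  obtain ⟨s, hs, hsy⟩ := hle ⟨⟨y, hYN hy⟩, hy, rfl⟩
  rw [hπ] at hsy
  have hsS : (s : X) ∈ S' := hs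
  have h1 : (s : X)⁻¹ * y ∈ Y ⊓ D := Subgroup.mem_inf.mpr ⟨mul_mem (inv_mem (hS'Y hsS)) hy, hsy⟩
  rw [hYD, Subgroup.mem_bot, inv_mul_eq_one] at h1
  rw [← h1]
  exact hsS

end Cfsg.Agent.Lib.Helper9
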