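import Mathlib
import Cfsg.Agent.Lib.Helper9.Basic

set_option autoImplicit false
open Cfsg

namespace Cfsg.Agent.Lib.Helper9

theorem conj_pow_eq {G : Type*} [Group G] {a x c : G} (h : a * x * a⁻¹ = x * c)
    (hc : a * c = c * a) (k : ℕ) : a ^ k * x * (a ^ k)⁻¹ = x * c ^ k := by
  induction k with
  | zero => simp
  | succ k ih =>
    have hck : a * c ^ k * a⁻¹ = c ^ k := by
      have : Commute a (c ^ k) := (show Commute a c from hc).pow_right k
      rw [this.eq]; group
    calc a ^ (k + 1) * x * (a ^ (k + 1))⁻¹ = a * (a ^ k * x * (a ^ k)⁻¹) * a⁻¹ := by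
          rw [pow_succ']; group
      _ = a * (x * c ^ k) * a⁻¹ := by rw [ih]
      _ = (a * x * a⁻¹) * (a * c ^ k * a⁻¹) := by group
      _ = x * c * c ^ k := by rw [h, hck]
      _ = x * c ^ (k + 1) := by rw [pow_succ', mul_assoc]

/-- If `a x a⁻¹ = x c`, `a` commutes with `c` and the orders of `a` and `c` are coprime, then
`c = 1`. -/
theorem eq_one_of_conj_eq_mul {G : Type*} [Group G] {a x c : G} (h : a * x * a⁻¹ = x * c)
    (hc : a * c = c * a) (hcop : Nat.Coprime (orderOf a) (orderOf c)) : c = 1 := by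
  have h1 := conj_pow_eq h hc (orderOf a)
  rw [pow_orderOf_eq_one] at h1
  have h2 : c ^ orderOf a = 1 := by simpa using h1
  have h3 : orderOf c ∣ orderOf a := orderOf_dvd_of_pow_eq_one h2
  have h4 : orderOf c = 1 := Nat.eq_one_of_dvd_coprimes hcop.symm dvd_rfl h3
  exact orderOf_eq_one_iff.mp h4

/-- Version with membership in subgroups of coprime orders. -/
theorem conj_eq_of_coprime {G : Type*} [Group G] [Finite G] {A H : Subgroup G}
    (hcop : Nat.Coprime (Nat.card A) (Nat.card H)) {a x : G} (ha : a ∈ A)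
    (hd : x⁻¹ * (a * x * a⁻¹) ∈ H) (hc : a * (x⁻¹ * (a * x * a⁻¹)) = (x⁻¹ * (a * x * a⁻¹)) * a) :
    a * x * a⁻¹ = x := by
  have h : a * x * a⁻¹ = x * (x⁻¹ * (a * x * a⁻¹)) := by group
  have h1 : x⁻¹ * (a * x * a⁻¹) = 1 := by
    apply eq_one_of_conj_eq_mul h hc
    exact Nat.Coprime.of_dvd (Subgroup.orderOf_dvd_natCard A ha) (Subgroup.orderOf_dvd_natCard H hd) hcop
  rw [h, h1, mul_one]

/-- In a finite nilpotent subgroup `Q ≤ G`, a proper subgroup `P < Q` is properly contained in `N_Q(P)`. -/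
theorem exists_mem_normalizer_not_mem_of_nilpotent {G : Type*} [Group G]
    {P Q : Subgroup G} (hQ : Group.IsNilpotent Q) (hlt : P < Q) :
    ∃ x ∈ Q, x ∈ Subgroup.normalizer (P : Set G) ∧ x ∉ P := by
  have hnc := Group.normalizerCondition_of_isNilpotent (G := Q)
  have h1 : P.subgroupOf Q < ⊤ := by
    rw [lt_top_iff_ne_top]
    intro h
    rw [Subgroup.subgroupOf_eq_top] at h
    exact absurd hlt (not_lt_of_ge h)
  have h2 := hnc _ h1
  obtain ⟨x, hx, hx'⟩ := SetLike.exists_of_lt h2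
  refine ⟨x, x.2, ?_, ?_⟩
  · rw [Subgroup.mem_normalizer_iff] at hx ⊢
    intro g
    constructor
    · intro hg
      have := (hx ⟨g, hlt.le hg⟩).1 (by simpa [Subgroup.mem_subgroupOf] using hg)
      simpa [Subgroup.mem_subgroupOf] using this
    · intro hg
      have hgQ : g ∈ Q := by
        have h3 : (x : G) * g * (x : G)⁻¹ ∈ Q := hlt.le hg
        have h4 : g = (x : G)⁻¹ * ((x : G) * g * (x : G)⁻¹) * (x : G) := by group
        rw [h4]
        exact Q.mul_mem (Q.mul_mem (Q.inv_mem x.2) h3) x.2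
      have := (hx ⟨g, hgQ⟩).2 (by simpa [Subgroup.mem_subgroupOf] using hg)
      simpa [Subgroup.mem_subgroupOf] using this
  · simpa [Subgroup.mem_subgroupOf] using hx'

end Cfsg.Agent.Lib.Helper9
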