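import Mathlib
import Cfsg.Prelude.Def_Local
import Cfsg.Agent.Lib.Helper1.Coprime
import Cfsg.Agent.Lib.Helper1.Nilp
import Cfsg.Agent.Lib.Helper1.PGrp
import Cfsg.Agent.Lib.Helper8.Components

set_option autoImplicit false

namespace Cfsg.Agent.Lib.Helper9

open Cfsg.Agent.Lib.Helper1
open scoped commutatorElement

variable {G : Type*} [Group G]

theorem pow_mul_comm_of_central {x y c : G} (hc : y * x = c * x * y) (hcx : Commute c x) (hcy : Commute c y)
    (k : ℕ) : y ^ k * x = c ^ k * x * y ^ k := by
  induction k with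
  | zero => simp
  | succ k ih =>
    calc y ^ (k + 1) * x = y ^ k * (y * x) := by rw [pow_succ, mul_assoc]
      _ = y ^ k * (c * x * y) := by rw [hc]
      _ = (y ^ k * c) * x * y := by simp only [mul_assoc]
      _ = (c * y ^ k) * x * y := by rw [(hcy.pow_right k).eq]
      _ = c * (y ^ k * x) * y := by simp only [mul_assoc]
      _ = c * (c ^ k * x * y ^ k) * y := by rw [ih]
      _ = c ^ (k + 1) * x * y ^ (k + 1) := by
          rw [pow_succ' c, pow_succ y]; simp only [mul_assoc]

theorem mul_pow_of_central {x y c : G} (hc : y * x = c * x * y) (hcx : Commute c x) (hcy : Commute c y)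
    (n : ℕ) : (x * y) ^ n = c ^ (n.choose 2) * x ^ n * y ^ n := by
  induction n with
  | zero => simp
  | succ n ih =>
    have hch : (n + 1).choose 2 = n.choose 2 + n := by
      rw [Nat.choose_succ_succ' n 1, Nat.choose_one_right, add_comm]
    calc (x * y) ^ (n + 1) = (x * y) ^ n * (x * y) := pow_succ _ _
      _ = c ^ (n.choose 2) * x ^ n * y ^ n * (x * y) := by rw [ih]
      _ = c ^ (n.choose 2) * x ^ n * (y ^ n * x) * y := by simp only [mul_assoc]
      _ = c ^ (n.choose 2) * x ^ n * (c ^ n * x * y ^ n) * y := by rw [pow_mul_comm_of_central hc hcx hcy]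
      _ = c ^ (n.choose 2) * (x ^ n * c ^ n) * x * y ^ n * y := by simp only [mul_assoc]
      _ = c ^ (n.choose 2) * (c ^ n * x ^ n) * x * y ^ n * y := by rw [((hcx.pow_pow n n)).eq]
      _ = c ^ ((n + 1).choose 2) * x ^ (n + 1) * y ^ (n + 1) := by
          rw [hch, pow_add, pow_succ x, pow_succ y]; simp only [mul_assoc]

/-- For odd `p`, a `p'`-group of automorphisms of a `p`-group that fixes all elements of order `p` is trivial. -/
theorem centralizes_of_centralizes_order_p [Finite G] (p : ℕ) [Fact p.Prime] (hp2 : p ≠ 2) (A : Subgroup G)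
    (hcop : (Nat.card A).Coprime p) (K : Subgroup G) (hK : IsPGroup p K)
    (hAK : A ≤ Subgroup.normalizer (K : Set G))
    (hfix : ∀ x ∈ K, orderOf x = p → A ≤ Subgroup.centralizer ({x} : Set G)) :
    A ≤ Subgroup.centralizer (K : Set G) := by
  have hp : p.Prime := Fact.out
  induction hn : Nat.card K using Nat.strong_induction_on generalizing K with
  | _ n ih =>
    have IH : ∀ D : Subgroup G, D ≤ K → D ≠ K → A ≤ Subgroup.normalizer (D : Set G) →
        A ≤ Subgroup.centralizer (D : Set G) := by
      intro D hDK hne hAD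
      exact ih (Nat.card D) (hn ▸ Cfsg.Agent.Lib.Helper8.card_lt_of_lt (lt_of_le_of_ne hDK hne)) D
        (hK.to_le hDK) hAD (fun x hx => hfix x (hDK hx)) rfl
    have hcopK : (Nat.card A).Coprime (Nat.card K) := by
      obtain ⟨k, hk⟩ := IsPGroup.iff_card.mp hK
      rw [hk]; exact Nat.Coprime.pow_right k hcop
    have hsol : Group.IsSolvable A ∨ Group.IsSolvable K := Or.inr (solvable_of_isPGroup hK)
    have hKA : ⁅K, A⁆ ≤ K := commutator_le_of_le_normalizer hAK
    by_cases hcomm : ⁅K, A⁆ = K
    · by_cases hbot : K = ⊥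
      · rw [hbot]
        intro a _
        rw [Subgroup.mem_centralizer_iff]
        intro d hd
        have : d = 1 := hd
        rw [this, one_mul, mul_one]
      have hnt : Nontrivial K := (Subgroup.nontrivial_iff_ne_bot K).mpr hbot
      set Φ := (frattini K).map K.subtype with hΦ
      have hΦK : Φ ≤ K := Subgroup.map_subtype_le _
      have hΦne : Φ ≠ K := by
        intro h
        obtain ⟨M, hM⟩ := (eq_top_or_exists_le_coatom (⊥ : Subgroup K)).resolve_left bot_ne_top
        have h1 : frattini K ≤ M := frattini_le_coatom hM.1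
        have h2 : frattini K = ⊤ := by
          apply Subgroup.map_injective K.subtype_injective
          rw [← hΦ, h, ← MonoidHom.range_eq_map, Subgroup.range_subtype]
        rw [h2, top_le_iff] at h1
        exact hM.1.1 h1
      have hAΦ : A ≤ Subgroup.normalizer (Φ : Set G) := hAK.trans (normalizer_le_normalizer_map_char _)
      have hKΦ : K ≤ Subgroup.normalizer (Φ : Set G) :=
        Subgroup.le_normalizer.trans (normalizer_le_normalizer_map_char _)
      have hAcΦ := IH Φ hΦK hΦne hAΦ
      -- `Φ` is central in `K`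
      have hΦc : ⁅K, Φ⁆ = ⊥ := by
        have h1 : ⁅⁅A, Φ⁆, K⁆ = ⊥ := by
          rw [Subgroup.commutator_eq_bot_iff_le_centralizer.mpr hAcΦ]
          exact Subgroup.commutator_bot_left K
        have h2 : ⁅⁅Φ, K⁆, A⁆ = ⊥ := by
          rw [Subgroup.commutator_comm, Subgroup.commutator_eq_bot_iff_le_centralizer]
          exact hAcΦ.trans (Subgroup.centralizer_le (commutator_le_of_le_normalizer hKΦ))
        have h3 := Subgroup.commutator_commutator_eq_bot_of_rotate h1 h2
        rwa [hcomm] at h3
      have hΦcomm : ∀ k ∈ K, ∀ f ∈ Φ, f * k = k * f := by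
        rw [Subgroup.commutator_eq_bot_iff_le_centralizer] at hΦc
        intro k hk f hf
        exact Subgroup.mem_centralizer_iff.mp (hΦc hk) f hf
      obtain ⟨hfr1, hfr2⟩ := pgroup_frattini (G := K) hK
      have hpowΦ : ∀ k ∈ K, k ^ p ∈ Φ := by
        intro k hk
        exact ⟨⟨k, hk⟩ ^ p, hfr2 ⟨k, hk⟩, rfl⟩
      have hcommΦ : ∀ x ∈ K, ∀ y ∈ K, y * x * y⁻¹ * x⁻¹ ∈ Φ := by
        intro x hx y hy
        refine ⟨⁅(⟨y, hy⟩ : K), ⟨x, hx⟩⁆, hfr1 ?_, rfl⟩
        exact Subgroup.commutator_mem_commutator (Subgroup.mem_top _) (Subgroup.mem_top _)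
      have hmulpow : ∀ x ∈ K, ∀ y ∈ K, (x * y) ^ p = x ^ p * y ^ p := by
        intro x hx y hy
        set c := y * x * y⁻¹ * x⁻¹ with hc
        have hcΦ : c ∈ Φ := hcommΦ x hx y hy
        have hc1 : y * x = c * x * y := by rw [hc]; group
        have hcx : Commute c x := hΦcomm x hx c hcΦ
        have hcy : Commute c y := hΦcomm y hy c hcΦ
        have hcp : c ^ p = 1 := by
          have h1 := pow_mul_comm_of_central hc1 hcx hcy p
          have h2 : y ^ p * x = x * y ^ p := hΦcomm x hx _ (hpowΦ y hy)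
          rw [h2, mul_assoc] at h1
          exact (mul_eq_right.mp h1.symm)
        rw [mul_pow_of_central hc1 hcx hcy p]
        have hdvd : p ∣ p.choose 2 := hp.dvd_choose_self (by norm_num) (by
          have := hp.two_le
          omega)
        obtain ⟨m, hm⟩ := hdvd
        rw [hm, pow_mul, hcp, one_pow, one_mul]
      let Ω : Subgroup G :=
        { carrier := {x | x ∈ K ∧ x ^ p = 1}
          mul_mem' := by
            rintro x y ⟨hx, hx'⟩ ⟨hy, hy'⟩
            exact ⟨K.mul_mem hx hy, by rw [hmulpow x hx y hy, hx', hy', one_mul]⟩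
          one_mem' := ⟨K.one_mem, one_pow p⟩
          inv_mem' := by
            rintro x ⟨hx, hx'⟩
            exact ⟨K.inv_mem hx, by rw [inv_pow, hx', inv_one]⟩ }
      have hKΩ : K ≤ Ω := by
        rw [← hcomm, Subgroup.commutator_le]
        intro k hk a ha
        have hk' : a * k⁻¹ * a⁻¹ ∈ K := conj_mem_of_mem_normalizer (hAK ha) (K.inv_mem hk)
        have h1 : ⁅k, a⁆ = k * (a * k⁻¹ * a⁻¹) := by rw [commutatorElement_def]; group
        rw [h1]
        refine ⟨K.mul_mem hk hk', ?_⟩
        rw [hmulpow k hk _ hk', conj_pow, inv_pow]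
        have h2 := Subgroup.mem_centralizer_iff.mp (hAcΦ ha) _ (hpowΦ k hk)
        have h3 : a * (k ^ p)⁻¹ * a⁻¹ = (k ^ p)⁻¹ := by
          calc a * (k ^ p)⁻¹ * a⁻¹ = (k ^ p)⁻¹ * (k ^ p * a) * (k ^ p)⁻¹ * a⁻¹ := by group
            _ = (k ^ p)⁻¹ * (a * k ^ p) * (k ^ p)⁻¹ * a⁻¹ := by rw [h2]
            _ = (k ^ p)⁻¹ := by group
        rw [h3, mul_inv_cancel]
      intro a ha
      rw [Subgroup.mem_centralizer_iff]
      intro x hx
      by_cases hx1 : x = 1
      · rw [hx1, one_mul, mul_one]
      · have hox : orderOf x = p := orderOf_eq_prime (hKΩ hx).2 hx1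
        have := hfix x hx hox ha
        rw [Subgroup.mem_centralizer_singleton_iff] at this
        exact this.symm
    · have h1 := IH ⁅K, A⁆ hKA hcomm (le_normalizer_commutator_right hAK)
      have h2 : ⁅⁅K, A⁆, A⁆ = ⊥ := by
        rw [Subgroup.commutator_comm, Subgroup.commutator_eq_bot_iff_le_centralizer]
        exact h1
      rw [coprime_commutator_stable A K hAK hcopK hsol, Subgroup.commutator_comm,
        Subgroup.commutator_eq_bot_iff_le_centralizer] at h2
      exact h2

end Cfsg.Agent.Lib.Helper9
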