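import Mathlib
import Cfsg.Agent.Lib.Helper9.Cores
import Cfsg.Agent.Lib.Helper1.Coprime

set_option autoImplicit false
open Cfsg

namespace Cfsg.Agent.Lib.Helper9

open scoped Pointwise

theorem upperPSeries_zero (p : ℕ) (G : Type*) [Group G] : (upperPSeries p G 0).1 = ⊥ := rfl
theorem upperPSeries_one (p : ℕ) (G : Type*) [Group G] : (upperPSeries p G 1).1 =
    (pPrimeCore p (G ⧸ (upperPSeries p G 0).1)).comap (QuotientGroup.mk' _) := rfl
theorem upperPSeries_two (p : ℕ) (G : Type*) [Group G] : (upperPSeries p G 2).1 =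
    (pCore p (G ⧸ (upperPSeries p G 1).1)).comap (QuotientGroup.mk' _) := rfl
theorem upperPSeries_three (p : ℕ) (G : Type*) [Group G] : (upperPSeries p G 3).1 =
    (pPrimeCore p (G ⧸ (upperPSeries p G 2).1)).comap (QuotientGroup.mk' _) := rfl

/-- A normal `p`-subgroup lies in every Sylow `p`-subgroup. -/
theorem normal_pgroup_le_sylow {G : Type*} [Group G] [Finite G] {p : ℕ} [Fact p.Prime]
    (N : Subgroup G) [hN : N.Normal] (hp : IsPGroup p N) (S : Sylow p G) : N ≤ S := by
  obtain ⟨P, hP⟩ := hp.exists_le_sylow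
  obtain ⟨g, rfl⟩ := MulAction.exists_smul_eq G P S
  intro n hn
  rw [Sylow.smul_def, Sylow.pointwise_smul_def]
  show n ∈ MulAut.conj g • (P : Subgroup G)
  rw [Cfsg.Agent.Lib.Helper1.mem_conj_smul]
  apply hP
  have := hN.conj_mem n hn g⁻¹
  simpa using this

/-- The first term of the upper `p`-series is a normal `p'`-subgroup. -/
theorem card_upperPSeries_one_coprime (p : ℕ) [hp : Fact p.Prime] (G : Type*) [Group G] [Finite G] :
    (Nat.card (upperPSeries p G 1).1).Coprime p := by
  set f := QuotientGroup.mk' (upperPSeries p G 0).1 with hf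
  have hinj : Function.Injective f := by
    rw [← MonoidHom.ker_eq_bot_iff, hf, QuotientGroup.ker_mk', upperPSeries_zero]
  have h1 : ((upperPSeries p G 1).1).map f = pPrimeCore p (G ⧸ (upperPSeries p G 0).1) := by
    rw [upperPSeries_one]
    exact Subgroup.map_comap_eq_self_of_surjective (QuotientGroup.mk'_surjective _) _
  rw [← Subgroup.card_map_of_injective hinj, h1]
  exact pPrimeCore_coprime p hp.out _

/-- `p`-length one: `G = O_{p'}(G) N_G(S)`-type factorisation. -/
theorem exists_of_pLengthLE_one {G : Type*} [Group G] [Finite G] (p : ℕ) [hp : Fact p.Prime]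
    (h : PLengthLE p 1 G) (S : Sylow p G) :
    ∃ K : Subgroup G, K.Normal ∧ (Nat.card K).Coprime p ∧
      (∀ Q : Subgroup G, IsPGroup p Q → Q ≤ K ⊔ S) := by
  refine ⟨(upperPSeries p G 1).1, inferInstance, card_upperPSeries_one_coprime p G, ?_⟩
  set K := (upperPSeries p G 1).1 with hK
  set T := (upperPSeries p G 2).1 with hT
  -- index of T coprime to p
  have h3 : (upperPSeries p G 3).1 = ⊤ := h
  have hTidx : (T.index).Coprime p := by
    rw [upperPSeries_three] at h3
    have h4 : pPrimeCore p (G ⧸ T) = ⊤ := by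
      apply Subgroup.comap_injective (QuotientGroup.mk'_surjective T)
      rw [h3, Subgroup.comap_top]
    have h5 := pPrimeCore_coprime p hp.out (G ⧸ T)
    rw [h4, Subgroup.card_top] at h5
    rwa [Subgroup.index_eq_card]
  have hTle : T ≤ K ⊔ S := by
    have h6 : pCore p (G ⧸ K) ≤ (S.mapSurjective (QuotientGroup.mk'_surjective K) : Subgroup (G ⧸ K)) :=
      normal_pgroup_le_sylow _ (pCore_isPGroup p _) _
    rw [hT, upperPSeries_two]
    refine (Subgroup.comap_mono h6).trans ?_
    rw [Sylow.coe_mapSurjective, Subgroup.comap_map_eq, QuotientGroup.ker_mk', sup_comm]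
  intro Q hQ
  refine le_trans ?_ hTle
  apply le_of_normal_of_coprime_index
  obtain ⟨n, hn⟩ := IsPGroup.iff_card.mp hQ
  rw [hn]
  exact Nat.Coprime.pow_left n hTidx.symm

/-- `p`-length one: every element is `n * k` with `n ∈ N_G(S)`, `k` in a normal `p'`-subgroup. -/
theorem exists_of_pLengthLE_one' {G : Type*} [Group G] [Finite G] [Group.IsSolvable G] (p : ℕ)
    [hp : Fact p.Prime] (h : PLengthLE p 1 G) (S : Sylow p G) :
    ∃ K : Subgroup G, K.Normal ∧ (Nat.card K).Coprime p ∧
      (∀ x : G, ∃ k ∈ K, ∃ n ∈ Subgroup.normalizer ((S : Subgroup G) : Set G), x = k * n) := by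
  obtain ⟨K, hKn, hKp, hQ⟩ := exists_of_pLengthLE_one p h S
  refine ⟨K, hKn, hKp, ?_⟩
  intro x
  have hSN : (S : Subgroup G) ≤ Subgroup.normalizer (K : Set G) := by
    rw [Subgroup.normalizer_eq_top]; exact le_top
  have hB : (MulAut.conj x • (S : Subgroup G) : Subgroup G) ≤ K ⊔ S := by
    apply hQ
    exact S.2.map _
  obtain ⟨n, hn⟩ := IsPGroup.iff_card.mp S.2
  have hcop : (Nat.card K).Coprime (Nat.card (S : Subgroup G)) := by
    rw [hn]; exact Nat.Coprime.pow_right n hKp
  obtain ⟨k, hk, hkS⟩ := Cfsg.Agent.Lib.Helper1.szi_card K S (MulAut.conj x • (S : Subgroup G)) hSN hB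
    (Cfsg.Agent.Lib.Helper1.card_conj_smul x _) hcop (Or.inl inferInstance)
  refine ⟨k, hk, k⁻¹ * x, ?_, by group⟩
  rw [← Cfsg.Agent.Lib.Helper1.conj_smul_eq_self_iff_mem_normalizer,
    Cfsg.Agent.Lib.Helper1.conj_mul_smul, ← hkS, ← Cfsg.Agent.Lib.Helper1.conj_mul_smul]
  simp

end Cfsg.Agent.Lib.Helper9
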