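import Mathlib
import Cfsg.Prelude.Def_Local
import Cfsg.Agent.Lib.Helper29.PSolvable

set_option autoImplicit false

namespace Cfsg.Agent.Lib.Helper9

open Cfsg Matrix.SpecialLinearGroup

theorem transvection_pow' {F : Type*} [Field F] {i j : Fin 2} (hij : i ≠ j) (b : F) (n : ℕ) :
    (transvection hij b) ^ n = transvection hij (n * b) := by
  induction n with
  | zero => simp [transvection_coeff_zero]
  | succ n ih =>
    rw [pow_succ, ih, ← transvection_add]
    congr 1
    push_cast
    ring

/-- `SL₂(p)` is not `p`-solvable for `p ≥ 5`. -/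
theorem not_psol_sl2 {p : ℕ} [hpF : Fact p.Prime] (hp : 5 ≤ p) :
    ¬ IsPSolvable p (Matrix.SpecialLinearGroup (Fin 2) (ZMod p)) := by
  intro h
  have hcard : 4 ≤ Nat.card (ZMod p) := by
    rw [Nat.card_zmod]; omega
  have hs : IsSimpleGroup (Matrix.ProjectiveSpecialLinearGroup (Fin 2) (ZMod p)) :=
    Matrix.ProjectiveSpecialLinearGroup.rank_two_simple hcard
  have hq : IsPSolvable p (Matrix.ProjectiveSpecialLinearGroup (Fin 2) (ZMod p)) :=
    Cfsg.Agent.Lib.Helper29.psol_quotient h _
  obtain ⟨N, hNn, hNne, hPP⟩ := Cfsg.Agent.Lib.Helper29.psol_exists_normal hq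
  have hNtop : N = ⊤ := (hNn.eq_bot_or_eq_top).resolve_left hNne
  subst hNtop
  rw [Subgroup.card_top] at hPP
  have h01 : (0 : Fin 2) ≠ 1 := by decide
  set t : Matrix.SpecialLinearGroup (Fin 2) (ZMod p) := transvection h01 1 with ht
  have htp : t ^ p = 1 := by
    rw [ht, transvection_pow', ZMod.natCast_self, zero_mul, transvection_coeff_zero]
  have htc : t ∉ Subgroup.center (Matrix.SpecialLinearGroup (Fin 2) (ZMod p)) := by
    rw [ht, transvection_mem_center_iff]
    exact one_ne_zero
  set tb : Matrix.ProjectiveSpecialLinearGroup (Fin 2) (ZMod p) := QuotientGroup.mk t with htb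
  have htb1 : tb ≠ 1 := by
    intro h1
    exact htc ((QuotientGroup.eq_one_iff t).mp h1)
  have htbp : tb ^ p = 1 := by
    rw [htb, ← QuotientGroup.mk_pow, htp]; rfl
  have hord : orderOf tb = p := orderOf_eq_prime htbp htb1
  rcases hPP with ⟨m, hm⟩ | hcop
  · -- a `p`-group: solvable, hence commutative
    have hpg : IsPGroup p (Matrix.ProjectiveSpecialLinearGroup (Fin 2) (ZMod p)) :=
      IsPGroup.of_card hm
    have hnil : Group.IsNilpotent (Matrix.ProjectiveSpecialLinearGroup (Fin 2) (ZMod p)) :=
      hpg.isNilpotent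
    have hsol : Group.IsSolvable (Matrix.ProjectiveSpecialLinearGroup (Fin 2) (ZMod p)) :=
      inferInstance
    have hcomm := IsSimpleGroup.comm_iff_isSolvable.mpr hsol
    -- but the group is perfect
    obtain ⟨a, ha, hasq⟩ : ∃ a : ZMod p, a ≠ 0 ∧ a ^ 2 ≠ 1 := by
      refine ⟨2, ?_, ?_⟩
      · intro h2
        have h2' : ((2 : ℕ) : ZMod p) = 0 := by exact_mod_cast h2
        rw [ZMod.natCast_eq_zero_iff] at h2'
        have := Nat.le_of_dvd (by norm_num) h2'
        omega
      · intro h2
        have h2' : ((3 : ℕ) : ZMod p) = 0 := by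
          push_cast
          linear_combination h2
        rw [ZMod.natCast_eq_zero_iff] at h2'
        have := Nat.le_of_dvd (by norm_num) h2'
        omega
    have hperf := SL2Simple.PSL_commutator_eq_top (F := ZMod p) ⟨a, ha, hasq⟩
    have hbot : commutator (Matrix.ProjectiveSpecialLinearGroup (Fin 2) (ZMod p)) = ⊥ := by
      rw [commutator_def, Subgroup.commutator_eq_bot_iff_le_centralizer]
      intro x _
      rw [Subgroup.mem_centralizer_iff]
      intro y _
      exact hcomm y x
    rw [hbot] at hperf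
    exact htb1 (Subgroup.mem_bot.mp (hperf ▸ Subgroup.mem_top tb))
  · have hdvd : p ∣ Nat.card (Matrix.ProjectiveSpecialLinearGroup (Fin 2) (ZMod p)) := by
      have h1 := orderOf_dvd_natCard tb
      rwa [hord] at h1
    have := Nat.Coprime.eq_one_of_dvd hcop.symm hdvd
    exact hpF.out.one_lt.ne' this

end Cfsg.Agent.Lib.Helper9
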