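import Mathlib
import Cfsg.Agent.Lib.Helper9.PStable2
import Cfsg.Agent.Lib.Helper9.SL2NotPSol
import Cfsg.Agent.Lib.Helper5.Qd3

set_option autoImplicit false

namespace Cfsg.Agent.Lib.Helper9

open Cfsg

variable {Γ P : Type*} [Group Γ] [Group P]

/-- `p`-stability of actions of `p`-solvable groups, `p ≥ 5`. -/
theorem mk_mem_pCore_act_psol [Finite Γ] [Finite P] (p : ℕ) [Fact p.Prime] (hp : 5 ≤ p)
    (hsol : IsPSolvable p Γ) (hP : IsPGroup p P) (α : Γ →* MulAut P) (C : Subgroup Γ) [C.Normal]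
    (hC : α.ker ≤ C) (a : Γ) (ha : QuadAct α a) :
    QuotientGroup.mk' C a ∈ Cfsg.pCore p (Γ ⧸ C) := by
  rcases Cfsg.Agent.Lib.Helper5.Dk.mk_mem_pCore_or_conf (by omega) hP α C hC a ha with
    h | ⟨x, y, u₀, w₀, κ₀, hc⟩
  · exact h
  · exfalso
    obtain ⟨K₁, σ, hσ, -⟩ := hc.exists_hom
    exact not_psol_sl2 hp
      (Cfsg.Agent.Lib.Helper29.psol_of_surjective (Cfsg.Agent.Lib.Helper29.psol_subgroup hsol K₁) σ hσ)

/-- `p`-stability on a normal `p`-subgroup for `p`-solvable groups, `p ≥ 5`. -/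
theorem mk_mem_pCore_of_psol [Finite Γ] (p : ℕ) [hp : Fact p.Prime] (hp5 : 5 ≤ p)
    (hsol : IsPSolvable p Γ)
    (N : Subgroup Γ) [N.Normal] (hN : IsPGroup p N) (C : Subgroup Γ) [C.Normal]
    (hC : Subgroup.centralizer (N : Set Γ) ≤ C)
    (a : Γ) (ha : QuadOn N a) : QuotientGroup.mk' C a ∈ Cfsg.pCore p (Γ ⧸ C) :=
  mk_mem_pCore_act_psol p hp5 hsol hN MulAut.conjNormal C ((ker_conjNormal_le N).trans hC) a
    (quadAct_conjNormal ha)

end Cfsg.Agent.Lib.Helper9
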