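import Mathlib
import Cfsg.Agent.Lib.Helper9.PStable3

set_option autoImplicit false

namespace Cfsg.Agent.Lib.Helper9

open Cfsg

/-- `SL₂(p)` is not solvable for `p ≥ 5`. -/
theorem not_solvable_sl2 {p : ℕ} [hpF : Fact p.Prime] (hp : 5 ≤ p) :
    ¬ Group.IsSolvable (Matrix.SpecialLinearGroup (Fin 2) (ZMod p)) := by
  obtain ⟨a, ha, hasq⟩ : ∃ a : ZMod p, a ≠ 0 ∧ a ^ 2 ≠ 1 := by
    refine ⟨2, ?_, ?_⟩
    · intro h2
      have h2' : ((2 : ℕ) : ZMod p) = 0 := by exact_mod_cast h2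
      rw [ZMod.natCast_eq_zero_iff] at h2'
      have := Nat.le_of_dvd (by norm_num) h2'
      omega
    · intro h2
      have h2' : ((3 : ℕ) : ZMod p) = 0 := by
        push_cast
        linear_combination h2
      rw [ZMod.natCast_eq_zero_iff] at h2'
      have := Nat.le_of_dvd (by norm_num) h2'
      omega
  have : Group.IsPerfect (Matrix.SpecialLinearGroup (Fin 2) (ZMod p)) :=
    ⟨Matrix.SL2.commutator_eq_top ha hasq⟩
  have hnt : Nontrivial (Matrix.SpecialLinearGroup (Fin 2) (ZMod p)) := by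
    have h01 : (0 : Fin 2) ≠ 1 := by decide
    refine ⟨⟨Matrix.SpecialLinearGroup.transvection h01 1, 1, fun h => ?_⟩⟩
    have h1 : Matrix.SpecialLinearGroup.transvection h01 (1 : ZMod p) ∈
        Subgroup.center (Matrix.SpecialLinearGroup (Fin 2) (ZMod p)) := by
      rw [h]; exact Subgroup.one_mem _
    rw [Matrix.SpecialLinearGroup.transvection_mem_center_iff] at h1
    exact one_ne_zero h1
  exact Group.IsPerfect.not_isSolvable _

variable {Γ P : Type*} [Group Γ] [Group P]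

/-- `p`-stability of actions of solvable groups (abelian Sylow 2-subgroups if `p = 3`). -/
theorem mk_mem_pCore_act_sol [Finite Γ] [Finite P] (p : ℕ) [Fact p.Prime] (hp : p ≠ 2)
    (hsol : Group.IsSolvable Γ) (h3 : p = 3 → ∀ T : Sylow 2 Γ, IsMulCommutative T)
    (hP : IsPGroup p P) (α : Γ →* MulAut P) (C : Subgroup Γ) [C.Normal]
    (hC : α.ker ≤ C) (a : Γ) (ha : QuadAct α a) :
    QuotientGroup.mk' C a ∈ Cfsg.pCore p (Γ ⧸ C) := by
  by_cases hp3 : p = 3
  · exact mk_mem_pCore_act p hp hP α (h3 hp3) C hC a ha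
  have hp5 : 5 ≤ p := by
    have h2 := (Fact.out : p.Prime).two_le
    by_contra hlt
    have h4 : p = 4 := by omega
    have := (Fact.out : p.Prime)
    rw [h4] at this
    exact absurd this (by norm_num)
  rcases Cfsg.Agent.Lib.Helper5.Dk.mk_mem_pCore_or_conf hp hP α C hC a ha with
    h | ⟨x, y, u₀, w₀, κ₀, hc⟩
  · exact h
  · exfalso
    obtain ⟨K₁, σ, hσ, -⟩ := hc.exists_hom
    exact not_solvable_sl2 hp5 (Group.isSolvable_of_surjective hσ)

/-- `p`-stability on a normal `p`-subgroup for solvable groups. -/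
theorem mk_mem_pCore_of_sol [Finite Γ] (p : ℕ) [hp : Fact p.Prime] (hp2 : p ≠ 2)
    (hsol : Group.IsSolvable Γ) (h3 : p = 3 → ∀ T : Sylow 2 Γ, IsMulCommutative T)
    (N : Subgroup Γ) [N.Normal] (hN : IsPGroup p N) (C : Subgroup Γ) [C.Normal]
    (hC : Subgroup.centralizer (N : Set Γ) ≤ C)
    (a : Γ) (ha : QuadOn N a) : QuotientGroup.mk' C a ∈ Cfsg.pCore p (Γ ⧸ C) :=
  mk_mem_pCore_act_sol p hp2 hsol h3 hN MulAut.conjNormal C ((ker_conjNormal_le N).trans hC) a
    (quadAct_conjNormal ha)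

end Cfsg.Agent.Lib.Helper9
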