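import Mathlib
import Cfsg.Agent.S1467
import Cfsg.Agent.S1466
import Cfsg.Agent.Lib.Helper12.Conj
import Cfsg.Agent.Lib.Helper9.ZJMain

set_option autoImplicit false

namespace Cfsg.Agent.Lib.Helper9

open Subgroup Cfsg
open Cfsg.Agent.Lib.Helper12 (cj mem_cj cj_mono cj_le_iff mem_normalizer_iff_cj normalizer_cj cj_mul)

variable {G : Type*} [Group G]

/-- `L_H(X)` inside the ambient group -/
def pStepIn (H X : Subgroup G) : Subgroup G :=
  sSup {A : Subgroup G | A ≤ H ∧ IsMulCommutative A ∧ X ≤ normalizer (A : Set G)}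

/-- the Puig series of `H` inside the ambient group -/
def pSeqIn (H : Subgroup G) : ℕ → Subgroup G
  | 0 => ⊥
  | n + 1 => pStepIn H (pSeqIn H n)

theorem pSeqIn_zero (H : Subgroup G) : pSeqIn H 0 = ⊥ := rfl

theorem pSeqIn_succ (H : Subgroup G) (n : ℕ) : pSeqIn H (n + 1) = pStepIn H (pSeqIn H n) := rfl

theorem pStepIn_le (H X : Subgroup G) : pStepIn H X ≤ H := sSup_le (fun _ hA => hA.1)

theorem pStepIn_anti (H : Subgroup G) {X Y : Subgroup G} (h : X ≤ Y) : pStepIn H Y ≤ pStepIn H X := by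
  apply sSup_le_sSup
  rintro A ⟨h1, h2, h3⟩
  exact ⟨h1, h2, h.trans h3⟩

theorem pStepIn_mono {H K : Subgroup G} (h : H ≤ K) (X : Subgroup G) : pStepIn H X ≤ pStepIn K X := by
  apply sSup_le_sSup
  rintro A ⟨h1, h2, h3⟩
  exact ⟨h1.trans h, h2, h3⟩

theorem pStepIn_eq_of_le {H K X : Subgroup G} (h : H ≤ K) (hle : pStepIn K X ≤ H) :
    pStepIn K X = pStepIn H X := by
  apply le_antisymm _ (pStepIn_mono h X)
  apply sSup_le
  rintro A ⟨h1, h2, h3⟩
  apply le_sSup
  have h4 : A ≤ pStepIn K X := le_sSup ⟨h1, h2, h3⟩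
  exact ⟨h4.trans hle, h2, h3⟩

theorem le_pStepIn {H X A : Subgroup G} (h1 : A ≤ H) (h2 : IsMulCommutative A)
    (h3 : X ≤ normalizer (A : Set G)) : A ≤ pStepIn H X := le_sSup ⟨h1, h2, h3⟩

theorem pSeqIn_le (H : Subgroup G) (n : ℕ) : pSeqIn H n ≤ H := by
  cases n with
  | zero => exact bot_le
  | succ n => exact pStepIn_le _ _

theorem map_puigStep (H : Subgroup G) (X : Subgroup H) :
    (puigStep X).map H.subtype = pStepIn H (X.map H.subtype) := by
  apply le_antisymm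
  · rw [Subgroup.map_le_iff_le_comap]
    apply sSup_le
    rintro A ⟨hA, hX⟩
    rw [← Subgroup.map_le_iff_le_comap]
    apply le_pStepIn (map_subtype_le _) ((isMulCommutative_map_subtype_iff H A).mp hA)
    rintro _ ⟨x, hx, rfl⟩
    rw [mem_normalizer_iff]
    intro y
    have hxn := mem_normalizer_iff.mp (hX hx)
    constructor
    · rintro ⟨a, ha, rfl⟩
      exact ⟨x * a * x⁻¹, (hxn a).mp ha, rfl⟩
    · rintro ⟨a, ha, hay⟩
      have h1 : y = H.subtype (x⁻¹ * a * x) := by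
        have h2 : (a : G) = x * y * (x : G)⁻¹ := hay
        simp only [Subgroup.subtype_apply, Subgroup.coe_mul, Subgroup.coe_inv, h2]
        group
      rw [h1]
      refine ⟨_, ?_, rfl⟩
      apply (hxn _).mpr
      have h3 : x * (x⁻¹ * a * x) * x⁻¹ = a := by group
      rw [h3]; exact ha
  · apply sSup_le
    rintro A ⟨h1, h2, h3⟩
    have hA : A = (A.subgroupOf H).map H.subtype := by
      rw [subgroupOf_map_subtype, inf_of_le_left h1]
    rw [hA]
    apply Subgroup.map_mono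
    apply le_sSup
    refine ⟨(isMulCommutative_map_subtype_iff H _).mpr (hA ▸ h2), ?_⟩
    intro x hx
    have hxn := mem_normalizer_iff.mp (h3 ⟨x, hx, rfl⟩)
    rw [mem_normalizer_iff]
    intro y
    exact hxn y

theorem map_puigSeq (H : Subgroup G) (n : ℕ) : (puigSeq H n).map H.subtype = pSeqIn H n := by
  induction n with
  | zero => exact Subgroup.map_bot _
  | succ n ih =>
    rw [Cfsg.Agent.S1467.puigSeq_succ, map_puigStep, ih, pSeqIn_succ]

/-- `L_*(H)` inside the ambient group -/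
def lowIn (H : Subgroup G) : Subgroup G := (puigLower H).map H.subtype

/-- `L(H)` inside the ambient group -/
def upIn (H : Subgroup G) : Subgroup G := (puigSubgroup H).map H.subtype

theorem upIn_le (H : Subgroup G) : upIn H ≤ H := map_subtype_le _

theorem lowIn_le (H : Subgroup G) : lowIn H ≤ H := map_subtype_le _

theorem exists_stable [Finite G] (H : Subgroup G) :
    ∃ k : ℕ, ∀ n, k ≤ n → pSeqIn H (2 * n) = lowIn H ∧ pSeqIn H (2 * n + 1) = upIn H := by
  obtain ⟨-, -, -, ⟨k, hk⟩, -⟩ := Cfsg.Agent.S1467.result (G := H)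
  refine ⟨k, fun n hn => ?_⟩
  rw [← map_puigSeq, ← map_puigSeq, (hk n hn).1, (hk n hn).2]
  exact ⟨rfl, rfl⟩

theorem lowIn_le_upIn [Finite G] (H : Subgroup G) : lowIn H ≤ upIn H :=
  Subgroup.map_mono (Cfsg.Agent.S1467.result (G := H)).2.2.2.2.1

theorem pStepIn_lowIn [Finite G] (H : Subgroup G) : pStepIn H (lowIn H) = upIn H := by
  unfold lowIn upIn
  rw [← map_puigStep, (Cfsg.Agent.S1467.result (G := H)).2.2.2.2.2.1]

theorem pStepIn_upIn [Finite G] (H : Subgroup G) : pStepIn H (upIn H) = lowIn H := by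
  unfold lowIn upIn
  rw [← map_puigStep, (Cfsg.Agent.S1467.result (G := H)).2.2.2.2.2.2]

theorem pSeqIn_even_le_lowIn (H : Subgroup G) (n : ℕ) : pSeqIn H (2 * n) ≤ lowIn H := by
  rw [← map_puigSeq]
  exact Subgroup.map_mono (le_iSup (fun n => puigSeq H (2 * n)) n)

theorem upIn_le_pSeqIn_odd (H : Subgroup G) (n : ℕ) : upIn H ≤ pSeqIn H (2 * n + 1) := by
  rw [← map_puigSeq]
  exact Subgroup.map_mono (iInf_le (fun n => puigSeq H (2 * n + 1)) n)

/-! ### conjugation -/

theorem cj_pStepIn_le (g : G) (H X : Subgroup G) : cj g (pStepIn H X) ≤ pStepIn (cj g H) (cj g X) := by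
  rw [cj_le_iff]
  apply sSup_le
  rintro A ⟨h1, h2, h3⟩
  rw [← cj_le_iff]
  apply le_pStepIn (cj_mono h1) (isMulCommutative_map_equiv (MulAut.conj g) A h2)
  rw [normalizer_cj]
  exact cj_mono h3

theorem cj_inv_cj (g : G) (H : Subgroup G) : cj g⁻¹ (cj g H) = H := by
  rw [← cj_mul, inv_mul_cancel]
  ext x
  rw [mem_cj]
  simp

theorem cj_pStepIn (g : G) (H X : Subgroup G) : cj g (pStepIn H X) = pStepIn (cj g H) (cj g X) := by
  apply le_antisymm (cj_pStepIn_le g H X)
  have h := cj_pStepIn_le g⁻¹ (cj g H) (cj g X)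
  rw [cj_inv_cj, cj_inv_cj, cj_le_iff, inv_inv] at h
  exact h

theorem cj_pSeqIn (g : G) (H : Subgroup G) (n : ℕ) : cj g (pSeqIn H n) = pSeqIn (cj g H) n := by
  induction n with
  | zero => exact Subgroup.map_bot _
  | succ n ih => rw [pSeqIn_succ, cj_pStepIn, ih, pSeqIn_succ]

theorem normalizer_le_normalizer_pSeqIn (H : Subgroup G) (n : ℕ) :
    normalizer (H : Set G) ≤ normalizer (pSeqIn H n : Set G) := by
  intro g hg
  rw [mem_normalizer_iff_cj] at hg ⊢
  rw [cj_pSeqIn, hg]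

theorem normalizer_le_normalizer_upIn [Finite G] (H : Subgroup G) :
    normalizer (H : Set G) ≤ normalizer (upIn H : Set G) := by
  obtain ⟨k, hk⟩ := exists_stable H
  rw [← (hk k le_rfl).2]
  exact normalizer_le_normalizer_pSeqIn H _

theorem pSeqIn_normal (H : Subgroup G) [hH : H.Normal] (n : ℕ) : (pSeqIn H n).Normal := by
  rw [← normalizer_eq_top_iff, eq_top_iff]
  refine le_trans ?_ (normalizer_le_normalizer_pSeqIn H n)
  rw [normalizer_eq_top_iff.mpr hH]

theorem upIn_normal [Finite G] (H : Subgroup G) [hH : H.Normal] : (upIn H).Normal := by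
  obtain ⟨k, hk⟩ := exists_stable H
  rw [← (hk k le_rfl).2]
  exact pSeqIn_normal H _

/-- if `L(K) ≤ H ≤ K` then `L(H) = L(K)` -/
theorem upIn_eq_of_le [Finite G] {H K : Subgroup G} (hHK : H ≤ K) (hK : upIn K ≤ H) :
    upIn H = upIn K := by
  have key : ∀ n : ℕ, (pSeqIn K (2 * n) ≤ pSeqIn H (2 * n) ∧ pSeqIn H (2 * n) ≤ lowIn K) ∧
      (upIn K ≤ pSeqIn H (2 * n + 1) ∧ pSeqIn H (2 * n + 1) ≤ pSeqIn K (2 * n + 1)) := by
    have stepA : ∀ n : ℕ, (pSeqIn K (2 * n) ≤ pSeqIn H (2 * n) ∧ pSeqIn H (2 * n) ≤ lowIn K) →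
        (upIn K ≤ pSeqIn H (2 * n + 1) ∧ pSeqIn H (2 * n + 1) ≤ pSeqIn K (2 * n + 1)) := by
      rintro n ⟨h1, h2⟩
      constructor
      · rw [pSeqIn_succ]
        refine le_trans ?_ (pStepIn_anti H h2)
        rw [← pStepIn_eq_of_le hHK (by rw [pStepIn_lowIn]; exact hK), pStepIn_lowIn]
      · rw [pSeqIn_succ, pSeqIn_succ]
        exact (pStepIn_anti H h1).trans (pStepIn_mono hHK _)
    intro n
    induction n with
    | zero =>
      have h0 : pSeqIn K (2 * 0) ≤ pSeqIn H (2 * 0) ∧ pSeqIn H (2 * 0) ≤ lowIn K :=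
        ⟨le_rfl, bot_le⟩
      exact ⟨h0, stepA 0 h0⟩
    | succ n ih =>
      obtain ⟨-, h3, h4⟩ := ih
      have h1 : pSeqIn K (2 * (n + 1)) ≤ pSeqIn H (2 * (n + 1)) ∧ pSeqIn H (2 * (n + 1)) ≤ lowIn K := by
        have e : 2 * (n + 1) = (2 * n + 1) + 1 := by ring
        rw [e, pSeqIn_succ, pSeqIn_succ]
        constructor
        · refine le_trans ?_ (pStepIn_anti H h4)
          have h5 : pStepIn K (pSeqIn K (2 * n + 1)) ≤ H := by
            rw [← pSeqIn_succ, ← e]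
            exact ((pSeqIn_even_le_lowIn K _).trans (lowIn_le_upIn K)).trans hK
          rw [← pStepIn_eq_of_le hHK h5]
          exact le_rfl
        · refine (pStepIn_anti H h3).trans ((pStepIn_mono hHK _).trans ?_)
          rw [pStepIn_upIn]
      exact ⟨h1, stepA _ h1⟩
  obtain ⟨k₁, hk₁⟩ := exists_stable H
  obtain ⟨k₂, hk₂⟩ := exists_stable K
  have h := (key (max k₁ k₂)).2
  rw [(hk₁ _ (le_max_left _ _)).2, (hk₂ _ (le_max_right _ _)).2] at h
  exact le_antisymm h.2 h.1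

end Cfsg.Agent.Lib.Helper9
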