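import Mathlib
import Cfsg.Agent.Lib.Helper9.Puig
import Cfsg.Agent.S1465
import Cfsg.Agent.Lib.Helper1.Cores

set_option autoImplicit false

namespace Cfsg.Agent.Lib.Helper9

open Subgroup Cfsg

variable {G : Type*} [Group G] [Finite G]

/-- `C_T(L_i(T)) ≤ L_i(T)` in the ambient group -/
theorem inf_centralizer_pSeqIn_le {p : ℕ} [Fact p.Prime] (T : Subgroup G) (hT : IsPGroup p T) (i : ℕ)
    (hi : 0 < i) : T ⊓ centralizer (pSeqIn T i : Set G) ≤ pSeqIn T i := by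
  by_cases hT1 : T = ⊥
  · rw [hT1]; exact inf_le_left.trans bot_le
  have hnt : Nontrivial T := (nontrivial_iff_ne_bot _).mpr hT1
  have h := ((Cfsg.Agent.S1466.result p hT).1 i hi).2
  rintro x ⟨hxT, hxC⟩
  rw [← map_puigSeq]
  refine ⟨⟨x, hxT⟩, h ?_, rfl⟩
  rw [mem_centralizer_iff]
  intro y hy
  apply Subtype.ext
  have hy' : (y : G) ∈ pSeqIn T i := by
    rw [← map_puigSeq]; exact ⟨y, hy, rfl⟩
  exact (mem_centralizer_iff.mp hxC) y hy'

theorem inf_centralizer_upIn_le {p : ℕ} [Fact p.Prime] (T : Subgroup G) (hT : IsPGroup p T) :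
    T ⊓ centralizer (upIn T : Set G) ≤ upIn T := by
  obtain ⟨k, hk⟩ := exists_stable T
  rw [← (hk k le_rfl).2]
  exact inf_centralizer_pSeqIn_le T hT _ (by omega)

variable [Group.IsSolvable G]

/-- abelian subgroups of `S` normalised by a self-centralising (in `O_p(G)`) normal `p`-subgroup lie in `O_p(G)` -/
theorem pStepIn_le_pCore (hodd : Odd (Nat.card G)) (p : ℕ) [Fact p.Prime] (hp : p ≠ 2)
    (hO : pPrimeCore p G = ⊥) (S : Sylow p G) (P : Subgroup G) [P.Normal] (hP : IsPGroup p P)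
    (hC : pCore p G ⊓ centralizer (P : Set G) ≤ P) : pStepIn (S : Subgroup G) P ≤ pCore p G :=
  (Cfsg.Agent.S1465.result hodd p hp P hP
    {A : Subgroup G | A ≤ (S : Subgroup G) ∧ IsMulCommutative A ∧ P ≤ normalizer (A : Set G)}
    (fun _ hB => ⟨hB.2.1, S.2.to_le hB.1, hB.2.2⟩)).2 hO hC

theorem puig_compare (hodd : Odd (Nat.card G)) (p : ℕ) [Fact p.Prime] (hp : p ≠ 2)
    (hO : pPrimeCore p G = ⊥) (S : Sylow p G) (i : ℕ) :
    pSeqIn (S : Subgroup G) (2 * i) ≤ pSeqIn (pCore p G) (2 * i) ∧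
      pSeqIn (pCore p G) (2 * i + 1) ≤ pSeqIn (S : Subgroup G) (2 * i + 1) := by
  have hTn : (pCore p G).Normal := Cfsg.Agent.Lib.Helper1.pCore_normal p
  have hTp : IsPGroup p (pCore p G) := Cfsg.Agent.Lib.Helper1.pCore_isPGroup p
  have hTS : pCore p G ≤ S := hTp.le_sylow_of_normal S
  have stepA : ∀ i, pSeqIn (S : Subgroup G) (2 * i) ≤ pSeqIn (pCore p G) (2 * i) →
      pSeqIn (pCore p G) (2 * i + 1) ≤ pSeqIn (S : Subgroup G) (2 * i + 1) := by
    intro i h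
    rw [pSeqIn_succ, pSeqIn_succ]
    exact (pStepIn_anti _ h).trans (pStepIn_mono hTS _)
  induction i with
  | zero => exact ⟨le_rfl, stepA 0 le_rfl⟩
  | succ i ih =>
    have h1 : pSeqIn (S : Subgroup G) (2 * (i + 1)) ≤ pSeqIn (pCore p G) (2 * (i + 1)) := by
      have e : 2 * (i + 1) = (2 * i + 1) + 1 := by ring
      rw [e, pSeqIn_succ, pSeqIn_succ]
      refine (pStepIn_anti _ ih.2).trans ?_
      have hn : (pSeqIn (pCore p G) (2 * i + 1)).Normal := pSeqIn_normal _ _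
      have h2 := pStepIn_le_pCore hodd p hp hO S (pSeqIn (pCore p G) (2 * i + 1))
        (hTp.to_le (pSeqIn_le _ _)) (inf_centralizer_pSeqIn_le _ hTp _ (by omega))
      rw [pStepIn_eq_of_le hTS h2]
      exact le_rfl
    exact ⟨h1, stepA _ h1⟩

theorem puig_chain (hodd : Odd (Nat.card G)) (p : ℕ) [Fact p.Prime] (hp : p ≠ 2)
    (hO : pPrimeCore p G = ⊥) (S : Sylow p G) :
    lowIn (S : Subgroup G) ≤ lowIn (pCore p G) ∧ lowIn (pCore p G) ≤ upIn (pCore p G) ∧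
      upIn (pCore p G) ≤ upIn (S : Subgroup G) := by
  obtain ⟨k₁, hk₁⟩ := exists_stable (S : Subgroup G)
  obtain ⟨k₂, hk₂⟩ := exists_stable (pCore p G)
  have h := puig_compare hodd p hp hO S (max k₁ k₂)
  rw [(hk₁ _ (le_max_left _ _)).1, (hk₁ _ (le_max_left _ _)).2, (hk₂ _ (le_max_right _ _)).1,
    (hk₂ _ (le_max_right _ _)).2] at h
  exact ⟨h.1, lowIn_le_upIn _, h.2⟩

end Cfsg.Agent.Lib.Helper9
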