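import Mathlib
import Cfsg.Prelude.Def_PLocal
import Cfsg.Agent.Lib.Helper9.ZJLocal

set_option autoImplicit false

namespace Cfsg.Agent.Lib.Helper9

open Subgroup
open scoped commutatorElement

variable {Γ : Type*} [Group Γ]

/-- `x` acts quadratically on `X`: `x` commutes with its `X`-conjugates -/
def Qd (X : Subgroup Γ) (x : Γ) : Prop := ∀ u ∈ X, Commute (u * x * u⁻¹) x

theorem qd_iff {X : Subgroup Γ} {x : Γ} : ⁅⁅X, zpowers x⁆, zpowers x⁆ = ⊥ ↔ Qd X x := by
  constructor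
  · intro h u hu
    have h1 : ⁅u, x⁆ ∈ ⁅X, zpowers x⁆ := commutator_mem_commutator hu (mem_zpowers x)
    have h2 := commutator_mem_commutator h1 (mem_zpowers x)
    rw [h, mem_bot, commutatorElement_eq_one_iff_commute] at h2
    have h3 : u * x * u⁻¹ = ⁅u, x⁆ * x := by rw [commutatorElement_def]; group
    rw [h3]
    exact h2.mul_left (Commute.refl x)
  · intro h
    rw [commutator_eq_bot_iff_le_centralizer, commutator_le]
    intro u hu y hy
    obtain ⟨k, rfl⟩ := mem_zpowers_iff.mp hy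
    rw [mem_centralizer_iff]
    intro z hz
    obtain ⟨j, rfl⟩ := mem_zpowers_iff.mp hz
    have h1 : Commute (u * x * u⁻¹) x := h u hu
    have h2 : u * x ^ k * u⁻¹ = (u * x * u⁻¹) ^ k := (conj_zpow).symm
    have h3 : ⁅u, x ^ k⁆ = (u * x * u⁻¹) ^ k * (x ^ k)⁻¹ := by
      rw [commutatorElement_def, h2]
    rw [h3]
    have h4 : Commute ((u * x * u⁻¹) ^ k * (x ^ k)⁻¹) (x ^ j) :=
      ((h1.zpow_left k).mul_left ((Commute.refl x).zpow_left k).inv_left).zpow_right j
    exact h4.eq.symm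

theorem Qd.mono {X Y : Subgroup Γ} {x : Γ} (h : Qd Y x) (hXY : X ≤ Y) : Qd X x :=
  fun u hu => h u (hXY hu)

theorem Qd.conj {V : Subgroup Γ} [hV : V.Normal] {a : Γ} (h : Qd V a) (g : Γ) : Qd V (g * a * g⁻¹) := by
  intro u hu
  have h1 := h (g⁻¹ * u * g) (by simpa using hV.conj_mem u hu g⁻¹)
  have h2 : u * (g * a * g⁻¹) * u⁻¹ = g * ((g⁻¹ * u * g) * a * (g⁻¹ * u * g)⁻¹) * g⁻¹ := by group
  rw [h2]
  exact (SemiconjBy.conj_iff (b := g)).mpr h1

theorem Qd.of_mul {V : Subgroup Γ} [hV : V.Normal] {s c : Γ} (hc : c ∈ centralizer (V : Set Γ))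
    (h : Qd V (s * c)) : Qd V s := by
  intro u hu
  have h1 := h u hu
  have hcu : Commute c u⁻¹ := ((mem_centralizer_iff.mp hc) u⁻¹ (V.inv_mem hu)).symm
  have hw : u * s * u⁻¹ * s⁻¹ ∈ V := by
    have := V.mul_mem hu (hV.conj_mem u⁻¹ (V.inv_mem hu) s)
    simpa [mul_assoc] using this
  have hcw : Commute c (u * s * u⁻¹ * s⁻¹) := ((mem_centralizer_iff.mp hc) _ hw).symm
  -- `w s c` commutes with `s c`
  have h2 : u * (s * c) * u⁻¹ = (u * s * u⁻¹ * s⁻¹) * (s * c) := by
    calc u * (s * c) * u⁻¹ = u * s * (c * u⁻¹) := by group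
      _ = u * s * (u⁻¹ * c) := by rw [hcu.eq]
      _ = _ := by group
  rw [h2] at h1
  have h3 : Commute (u * s * u⁻¹ * s⁻¹) (s * c) := by
    have := h1.mul_left (Commute.refl (s * c)).inv_left
    simpa [mul_assoc] using this
  have h4 : Commute (u * s * u⁻¹ * s⁻¹) s := by
    have := h3.mul_right hcw.symm.inv_right
    simpa [mul_assoc] using this
  have h5 : u * s * u⁻¹ = (u * s * u⁻¹ * s⁻¹) * s := by group
  rw [h5]
  exact h4.mul_left (Commute.refl s)

theorem qd_map_iff {Δ : Type*} [Group Δ] (τ : Γ →* Δ) (hτ : Function.Injective τ) (X : Subgroup Γ) (y : Γ) :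
    Qd (X.map τ) (τ y) ↔ Qd X y := by
  constructor
  · intro h u hu
    have := h (τ u) (mem_map_of_mem τ hu)
    apply hτ
    have h2 : τ u * τ y * (τ u)⁻¹ * τ y = τ y * (τ u * τ y * (τ u)⁻¹) := this
    simpa using h2
  · rintro h _ ⟨u, hu, rfl⟩
    have := h u hu
    have h2 := congrArg τ this.eq
    show τ u * τ y * (τ u)⁻¹ * τ y = τ y * (τ u * τ y * (τ u)⁻¹)
    simpa using h2

/-- **Key lemma**: if no element of a Sylow subgroup acts quadratically and nontrivially on `X`, and the group acts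
`p`-stably on the normal closure `V` of `X`, then no element acts quadratically and nontrivially on `V`. -/
theorem centralizes_of_qd [Finite Γ] {p : ℕ} [Fact p.Prime] (P : Sylow p Γ) (X V : Subgroup Γ) [hVn : V.Normal]
    (hV : V = normalClosure (X : Set Γ)) (hst : Cfsg.IsPStableOn p V)
    (hQ : ∀ s ∈ P, Qd X s → s ∈ centralizer (X : Set Γ)) (a : Γ) (ha : Qd V a) :
    a ∈ centralizer (V : Set Γ) := by
  have hXV : X ≤ V := hV ▸ le_normalClosure
  have hCn : (centralizer (V : Set Γ)).Normal := inferInstance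
  have h1 := hst a (qd_iff.mpr ha)
  have hOn : (Cfsg.pCore p (Γ ⧸ centralizer (V : Set Γ))).Normal := Cfsg.Agent.Lib.Helper1.pCore_normal p
  obtain ⟨D, hD⟩ : ∃ D, D = (Cfsg.pCore p (Γ ⧸ centralizer (V : Set Γ))).comap
      (QuotientGroup.mk' (centralizer (V : Set Γ))) := ⟨_, rfl⟩
  have hDn : D.Normal := hD ▸ hOn.comap _
  have haD : a ∈ D := by rw [hD]; exact h1
  have hDle : D ≤ (P : Subgroup Γ) ⊔ centralizer (V : Set Γ) := by
    apply le_sylow_sup_of_pow_mem
    intro k hk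
    rw [hD] at hk
    obtain ⟨n, hn⟩ := (Cfsg.Agent.Lib.Helper1.pCore_isPGroup p (G := Γ ⧸ centralizer (V : Set Γ)))
      ⟨_, hk⟩
    refine ⟨n, ?_⟩
    rw [← QuotientGroup.eq_one_iff]
    exact congrArg Subtype.val hn
  have key : ∀ h : Γ, h * a * h⁻¹ ∈ centralizer (X : Set Γ) := by
    intro h
    have h2 := hDle (hDn.conj_mem a haD h)
    obtain ⟨s, hs, c, hc, hsc⟩ := (mem_sup_of_normal_right).mp h2
    have h3 : Qd V (s * c) := hsc ▸ ha.conj h
    have h4 : s ∈ centralizer (X : Set Γ) := hQ s hs ((h3.of_mul hc).mono hXV)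
    rw [← hsc]
    exact mul_mem h4 (centralizer_le (by exact_mod_cast hXV) hc)
  have h5 : V ≤ centralizer ({a} : Set Γ) := by
    rw [hV, normalClosure, closure_le]
    intro y hy
    obtain ⟨x, hx, hxy⟩ := Group.mem_conjugatesOfSet_iff.mp hy
    obtain ⟨g, hg⟩ := isConj_iff.mp hxy
    rw [SetLike.mem_coe, mem_centralizer_singleton_iff, ← hg]
    have h6 := (mem_centralizer_iff.mp (key g⁻¹)) x hx
    rw [inv_inv] at h6
    calc g * x * g⁻¹ * a = g * (x * (g⁻¹ * a * g)) * g⁻¹ := by group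
      _ = g * ((g⁻¹ * a * g) * x) * g⁻¹ := by rw [h6]
      _ = a * (g * x * g⁻¹) := by group
  rw [mem_centralizer_iff]
  intro v hv
  have := h5 hv
  rw [mem_centralizer_singleton_iff] at this
  exact this

end Cfsg.Agent.Lib.Helper9
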